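import Cfsg.Agent.CSixSevenEight.ImageCent

/-!
# The parity involution is isolated, and no odd normal subgroup moves the three coordinates
-/

set_option autoImplicit false
set_option maxRecDepth 8000
set_option linter.unusedSectionVars false

namespace Cfsg.Agent.CSixSevenEight

open Cfsg Cfsg.Geo Matrix
open Cfsg.Agent.CSixSeven (InX Zm Ym Xm Kz)

variable {X : Subgroup (GL (Fin 7) K)}

theorem eq_one_of_odd {G : Type*} [Group G] {x : G} {a n : ℕ} (ha : x ^ a = 1) (hn : x ^ n = 1)
    (h : Nat.Coprime a n) : x = 1 := by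
  have := pow_gcd_eq_one.2 ⟨ha, hn⟩
  rwa [h, pow_one] at this

theorem e1_split : el 2 0 1 * dd false true true = el 2 1 1 ∧
    dd false true true * dd false true true = 1 ∧ el 2 0 1 ≠ (1 : M3K) ∧
    dd false true true ≠ (1 : M3K) := by
  decide +kernel

theorem el2021 : el 2 0 1 * el 2 1 1 = dd false true true := by decide +kernel

/-- A normal subgroup of odd order of the image is trivial. -/
theorem img_core (hG : Gens X) (hK : SmallKernel X) (O : Subgroup (Img X)) [O.Normal]
    (hodd : Odd (Nat.card O)) {o : Img X} (ho : o ∈ O) : o = 1 := by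
  have inv_all : ∀ e : Img X, e * e = 1 → e ≠ 1 → ∀ o ∈ O, e * o * e = o⁻¹ := by
    intro e e2 e1 o ho
    obtain ⟨s, v, hs, -, hes, hev, hsv⟩ := CSixSeven.exists_inverted_split e2 O hodd ho
    obtain ⟨k, hk⟩ := img_conj hG hK e2 e1
    have hcomm : s * e = e * s := by
      calc s * e = e * s * e * e := by rw [hes]
        _ = e * s := by rw [mul_assoc, e2, mul_one]
    have hc : (k⁻¹ * s * k) * tImg hG = tImg hG * (k⁻¹ * s * k) := by
      have : tImg hG = k⁻¹ * e * k := by rw [hk]; group
      rw [this]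
      calc k⁻¹ * s * k * (k⁻¹ * e * k) = k⁻¹ * (s * e) * k := by group
        _ = _ := by rw [hcomm]; group
    have hs'O : k⁻¹ * s * k ∈ O := by
      simpa using (inferInstance : O.Normal).conj_mem s hs k⁻¹
    have hcard : (k⁻¹ * s * k) ^ Nat.card O = 1 :=
      congrArg Subtype.val (pow_card_eq_one' (x := (⟨_, hs'O⟩ : O)))
    obtain ⟨m, hm⟩ := hodd
    have := eq_one_of_odd (img_cent_pow hG hK hc) hcard (by
      rw [hm, show (4 : ℕ) = 2 ^ 2 by norm_num]
      exact Nat.Coprime.pow_left 2 (Nat.coprime_two_left.2 ⟨m, rfl⟩))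
    have s1 : s = 1 := by
      calc s = k * (k⁻¹ * s * k) * k⁻¹ := by group
        _ = 1 := by rw [this]; group
    rw [hsv, s1, one_mul, hev]
  obtain ⟨a, ha⟩ := el_mem hG (X := X) (show (2 : Fin 3) ≠ 0 by decide)
  set e₁ : Img X := (act X).rangeRestrict a with he₁
  have e₁v : ((e₁ : GL (Fin 3) K) : M3K) = el 2 0 1 := ha
  have e₁2 : e₁ * e₁ = 1 := img_ext (by rw [img_val_mul, img_val_one, e₁v, el_sq.2.1])
  have e₁1 : e₁ ≠ 1 := fun h => e1_split.2.2.1 (by rw [← e₁v, h, img_val_one])
  set e₂ : Img X := e₁ * tImg hG with he₂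
  have e₂v : ((e₂ : GL (Fin 3) K) : M3K) = dd false true true := by
    rw [he₂, img_val_mul, e₁v, tImg_val, el2021]
  have e₂2 : e₂ * e₂ = 1 := img_ext (by rw [img_val_mul, img_val_one, e₂v, e1_split.2.1])
  have e₂1 : e₂ ≠ 1 := fun h => e1_split.2.2.2 (by rw [← e₂v, h, img_val_one])
  have ht2 := tImg_sq hG
  have ht1 : tImg hG ≠ 1 := by
    intro h
    apply e₂1
    have h2 : e₂ = e₁ := by rw [he₂, h, mul_one]
    rw [h2]
    have := congrArg (fun x : Img X => ((x : GL (Fin 3) K) : M3K)) h2
    simp only [e₂v, e₁v] at this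
    exact absurd this (by decide +kernel)
  have tsplit : tImg hG = e₁ * e₂ := by rw [he₂, ← mul_assoc, e₁2, one_mul]
  have h1 := inv_all _ ht2 ht1 o ho
  have h2 : tImg hG * o * tImg hG = o := by
    have tinv : tImg hG = e₂ * e₁ := by
      calc tImg hG = (tImg hG)⁻¹ := (inv_eq_of_mul_eq_one_right ht2).symm
        _ = _ := by
          rw [tsplit, _root_.mul_inv_rev, inv_eq_of_mul_eq_one_right e₁2,
            inv_eq_of_mul_eq_one_right e₂2]
    calc tImg hG * o * tImg hG = e₁ * e₂ * o * (e₂ * e₁) := by rw [← tsplit, ← tinv]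
      _ = e₁ * (e₂ * o * e₂) * e₁ := by group
      _ = e₁ * o⁻¹ * e₁ := by rw [inv_all _ e₂2 e₂1 o ho]
      _ = o := by rw [inv_all _ e₁2 e₁1 _ (inv_mem ho), inv_inv]
  have oo : o * o = 1 := by
    have : o = o⁻¹ := h2.symm.trans h1
    nth_rw 1 [this]; exact inv_mul_cancel o
  have hcard : o ^ Nat.card O = 1 := congrArg Subtype.val (pow_card_eq_one' (x := (⟨o, ho⟩ : O)))
  exact eq_one_of_odd (a := 2) (by rw [sq, oo]) hcard (Nat.coprime_two_left.2 hodd)

/-- The parity involution is the only involution of its centraliser. -/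
theorem uniq (hG : Gens X) (hK : SmallKernel X) : CSixSeven.Uniq X := by
  intro h hh hord
  set g : Kz X := ⟨h, hh⟩ with hg
  have h2 : h * h = 1 := by rw [← sq, ← hord, pow_orderOf_eq_one]
  have g2 : g * g = 1 := Subtype.ext h2
  by_cases hact : act X g = 1
  · obtain ⟨c, -, hc⟩ := act_eq_one hG hK hact
    have := sq_scalar hc
    rw [g2, Subgroup.coe_one, cq_one] at this
    have c2 : c * c = 1 := by
      have h3 := congrArg top this
      rw [top_smul, top_one] at h3
      exact smul_one_inj _ h3.symm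
    obtain rfl := Cfsg.Agent.SpecD4.F8.eq_one_of_sq c c2
    rw [one_smul, one_smul] at hc
    rcases hc with hc | hc
    · exfalso
      have : h = 1 := cq_inj (hc.trans cq_one.symm)
      rw [this, orderOf_one] at hord
      omega
    · rw [zm_eq, ← hc]; exact (cq_back h).symm
  · exfalso
    set gi : Img X := (act X).rangeRestrict g with hgi
    obtain ⟨k, hk⟩ := img_conj hG hK (g := gi) (by rw [hgi, ← map_mul, g2, map_one])
      (fun h1 => hact (congrArg Subtype.val h1))
    obtain ⟨k', rfl⟩ := (act X).rangeRestrict_surjective k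
    set T := (exists_lift hG).choose with hT
    have hTz := (exists_lift hG).choose_spec.2
    have hker : act X ((k' * T * k'⁻¹)⁻¹ * g) = 1 := by
      have := congrArg Subtype.val hk
      simp only [hgi, tImg, Subgroup.coe_mul, InvMemClass.coe_inv,
        MonoidHom.coe_rangeRestrict] at this
      rw [map_mul, map_inv, this, map_mul, map_mul, map_inv, inv_mul_cancel]
    obtain ⟨c, -, hc⟩ := act_eq_one hG hK hker
    set s := (k' * T * k'⁻¹)⁻¹ * g with hs
    have hsc := scalar_of_cq hc
    have hz : ∀ x : Kz X, T * T * x = x * (T * T) :=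
      scalar_of_cq (c := 1) (Or.inr (by rw [one_smul]; exact hTz))
    have gs : g = k' * T * k'⁻¹ * s := by rw [hs, mul_inv_cancel_left]
    have : g * g = T * T * (s * s) := by
      calc g * g = k' * T * k'⁻¹ * (s * (k' * T * k'⁻¹)) * s := by rw [gs]; group
        _ = (k' * (T * T) * k'⁻¹) * (s * s) := by rw [hsc]; group
        _ = T * T * (s * s) := by rw [← hz k', mul_inv_cancel_right]
    rw [g2] at this
    have := congrArg (fun x : Kz X => cq x.1) this
    simp only [Subgroup.coe_one, cq_one] at this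
    have ss := sq_scalar hc
    simp only [Subgroup.coe_mul, cq_mul] at this ss
    have hTz' : cq (T : GL (Fin 7) K) * cq (T : GL (Fin 7) K) = zq := by
      rw [← cq_mul, ← Subgroup.coe_mul]; exact hTz
    rw [ss, hTz', Matrix.mul_smul, Matrix.mul_one] at this
    have h3 := congrArg top this
    rw [top_one, top_smul, top_zq] at h3
    rw [smul_one_inj _ h3.symm, one_smul] at this
    exact zq_ne_one this.symm

/-- What the rest of the argument needs about the centraliser of the parity involution. -/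
theorem uniq_and_core {X : Subgroup (GL (Fin 7) K)} (hG : Gens X) (hK : SmallKernel X) :
    CSixSeven.Uniq X ∧ (∀ N ≤ CSixSeven.Kz X, Odd (Nat.card N) →
      (∀ k ∈ CSixSeven.Kz X, ∀ n ∈ N, k * n * k⁻¹ ∈ N) → N ≤ Cfsg.Geo.scalars (Fin 7) K) := by
  refine ⟨uniq hG hK, fun N hN hodd hnorm n hn => ?_⟩
  set N' : Subgroup (Kz X) := N.subgroupOf (Kz X) with hN'
  have : N'.Normal := ⟨fun m hm k => hnorm k k.2 m hm⟩
  set ρ := (act X).rangeRestrict with hρ
  have : (N'.map ρ).Normal :=
    Subgroup.Normal.map inferInstance ρ (act X).rangeRestrict_surjective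
  have hoddN : Odd (Nat.card N') := by
    rwa [Nat.card_congr (Subgroup.subgroupOfEquivOfLe hN).toEquiv]
  have hoddO : Odd (Nat.card (N'.map ρ)) :=
    Odd.of_dvd_nat hoddN (Subgroup.card_map_dvd _ _)
  have hn' : (⟨n, hN hn⟩ : Kz X) ∈ N' := hn
  have h1 := img_core hG hK (N'.map ρ) hoddO (Subgroup.mem_map_of_mem ρ hn')
  obtain ⟨c, hc0, hc⟩ := act_eq_one hG hK (congrArg Subtype.val h1)
  have hval : cq n = c • 1 := by
    rcases hc with hc | hc
    · exact hc
    · exfalso
      have hp : (⟨n, hN hn⟩ : Kz X) ^ Nat.card N' = 1 :=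
        congrArg Subtype.val (pow_card_eq_one' (x := (⟨_, hn'⟩ : N')))
      obtain ⟨m, hm⟩ := hoddN
      rw [hm, pow_succ, pow_mul, sq] at hp
      have hsq := sq_scalar (k := ⟨n, hN hn⟩) (Or.inr hc)
      have hp' := congrArg (fun x : Kz X => cq x.1) hp
      simp only [Subgroup.coe_mul, SubgroupClass.coe_pow, cq_mul, Subgroup.coe_one, cq_one] at hp'
      have hpow : ∀ j : ℕ, cq ((n * n) ^ j) = ((c * c) ^ j) • (1 : M7K) := by
        intro j
        induction j with
        | zero => rw [pow_zero, cq_one, pow_zero, one_smul]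
        | succ j ih =>
          rw [pow_succ, cq_mul, ih, show cq (n * n) = (c * c) • 1 from hsq, Matrix.smul_mul,
            Matrix.one_mul, smul_smul, pow_succ]
      rw [hpow, hc, Matrix.smul_mul, Matrix.one_mul, smul_smul] at hp'
      have h3 := congrArg top hp'
      rw [top_one, top_smul, top_zq] at h3
      rw [smul_one_inj _ h3, one_smul] at hp'
      exact zq_ne_one hp'
  refine (mem_scalars_iff n).2 ⟨Units.mk0 c hc0, ?_⟩
  rw [← cq_back n, hval, Matrix.mul_smul, Matrix.mul_one, Matrix.smul_mul, qb.inv', Units.val_mk0]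

end Cfsg.Agent.CSixSevenEight
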