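import Cfsg.Agent.CSixSevenEight.ImageGroup

/-!
# The centraliser of the central involution in the image, and the classes of involutions
-/

set_option autoImplicit false
set_option maxRecDepth 8000
set_option linter.unusedSectionVars false
set_option linter.unreachableTactic false
set_option linter.unusedTactic false
set_option linter.unnecessarySeqFocus false

namespace Cfsg.Agent.CSixSevenEight

open Cfsg Cfsg.Geo Matrix
open Cfsg.Agent.CSixSeven (InX Zm Ym Xm Kz)

variable {X : Subgroup (GL (Fin 7) K)}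

/-- The shape of a matrix commuting with the central elementary involution. -/
def shape (p q a r v : K) : M3K := !![p, q, 0; 0, a, 0; r, v, a]

theorem comm_shape {A : M3K} (e : A * el 2 1 1 = el 2 1 1 * A) :
    A = shape (A 0 0) (A 0 1) (A 1 1) (A 2 0) (A 2 1) := by
  have k : ∀ i j : Fin 3, (A * el 2 1 1) i j = (el 2 1 1 * A) i j := fun i j => by rw [e]
  have h01 := k 0 1
  have h11 := k 1 1
  have h20 := k 2 0
  have h21 := k 2 1
  simp [Matrix.mul_apply, Fin.sum_univ_three, el] at h01 h11 h20 h21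
  ext i j
  fin_cases i <;> fin_cases j <;> simp [shape, h01, h11, h20]
  exact add_left_cancel (h21.trans (add_comm _ _))

theorem el_sq : el 0 1 1 * el 0 1 1 = 1 ∧ el 2 0 1 * el 2 0 1 = 1 ∧ el 2 1 1 * el 2 1 1 = 1 := by
  decide +kernel

theorem InH.comm {A u B : M3K} (hA : InH X A) (hu : InH X u) (e2 : u * u = 1)
    (e : A * u = B * u * A) : InH X B := by
  obtain ⟨g, hg⟩ := hA
  obtain ⟨k, hk⟩ := hu
  refine ⟨g * k * g⁻¹ * k, ?_⟩
  rw [map_mul, map_mul, map_mul, Units.val_mul, Units.val_mul, Units.val_mul, hg, hk, e]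
  calc B * u * A * ((act X g⁻¹ : GL (Fin 3) K) : M3K) * u
      = B * u * ((act X g : M3K) * ((act X g⁻¹ : GL (Fin 3) K) : M3K)) * u := by
        rw [hg]; simp only [Matrix.mul_assoc]
    _ = B := by
        rw [map_inv, Units.mul_inv, Matrix.mul_one, Matrix.mul_assoc, e2, Matrix.mul_one]

theorem el01 : ∀ c : K, el 0 1 c = !![1, c, 0; 0, 1, 0; 0, 0, 1] := by decide +kernel

theorem el20 : ∀ c : K, el 2 0 c = !![1, 0, 0; 0, 1, 0; c, 0, 1] := by decide +kernel

theorem el21 : ∀ c : K, el 2 1 c = !![1, 0, 0; 0, 1, 0; 0, c, 1] := by decide +kernel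

theorem shape_first {p q a r v β δ : K} (hβ : p + a = β * a) (hr : r = δ * a) :
    shape p q a r v * el 0 1 1 = shape 1 β 1 0 δ * el 0 1 1 * shape p q a r v := by
  subst hr
  have hp : p = (β + 1) * a := by
    rw [add_mul, one_mul, ← hβ, add_assoc, CharTwo.add_self_eq_zero, add_zero]
  subst hp
  rw [el01]
  simp only [shape, Matrix.mul_fin_three]
  ext i j
  fin_cases i <;> fin_cases j <;> simp <;> ring_nf <;> simp [CharTwo.two_eq_zero]

theorem shape_second {q r v : K} :
    shape 1 q 1 r v * el 2 0 1 = el 2 1 q * el 2 0 1 * shape 1 q 1 r v := by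
  rw [el20, el21]
  simp only [shape, Matrix.mul_fin_three]
  ext i j
  fin_cases i <;> fin_cases j <;> simp <;> ring_nf <;> simp [CharTwo.two_eq_zero]

theorem shape_third : ∀ β δ : K,
    shape 1 β 1 0 δ * el 2 0 1 = el 2 1 β * el 2 0 1 * shape 1 β 1 0 δ := fun _ _ => shape_second

theorem shape_beta : ∀ p a β : K, p * a * a = 1 → p + a = β * a → β = 0 ∨ β = 1 → p = 1 ∧ a = 1 := by
  decide +kernel

theorem shape_el : ∀ δ : K, shape 1 0 1 0 δ = el 2 1 δ := by decide +kernel

theorem dd_shape : ∀ q r v : Bool, dd q r v = shape 1 (bk q) 1 (bk r) (bk v) := by decide +kernel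

theorem dd_split : ∀ q r : Bool, ∀ v : K,
    shape 1 (bk q) 1 (bk r) v * (el 2 0 (bk r) * el 0 1 (bk q)) = el 2 1 v := by decide +kernel

theorem el_off (hG : Gens X) {i j : Fin 3} (hij : i ≠ j) (b : Bool) : InH X (el i j (bk b)) := by
  cases b
  · refine ⟨1, ?_⟩
    rw [map_one, Units.val_one]
    ext x y
    simp only [el, bk, cond_false, Matrix.of_apply, Matrix.one_apply]
    by_cases h : x = i ∧ y = j
    · rw [if_pos h, if_neg (by rw [h.1, h.2]; exact hij)]
    · rw [if_neg h]
  · exact el_mem hG hij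

theorem bk_of_prime : ∀ q : K, q = 0 ∨ q = 1 → ∃ b : Bool, q = bk b := by decide +kernel

/-- The centraliser of the central involution in the image has at most eight elements. -/
theorem cent_small (hG : Gens X) (hK : SmallKernel X) {A : M3K} (hA : InH X A)
    (e : A * el 2 1 1 = el 2 1 1 * A) : ∃ q r v : Bool, A = dd q r v := by
  have hs := comm_shape e
  generalize A 0 0 = p at hs
  generalize A 0 1 = q at hs
  generalize A 1 1 = a at hs
  generalize A 2 0 = r at hs
  generalize A 2 1 = v at hs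
  subst hs
  have hdet : p * a * a = 1 := by
    obtain ⟨g, hg⟩ := hA
    have := act_det g
    rw [hg, Matrix.det_fin_three] at this
    simpa [shape] using this
  have ha : a ≠ 0 := by
    intro h; rw [h, mul_zero] at hdet; exact zero_ne_one hdet
  have hβ : p + a = ((p + a) / a) * a := (div_mul_cancel₀ _ ha).symm
  have hr : r = (r / a) * a := (div_mul_cancel₀ _ ha).symm
  have hB : InH X (shape 1 ((p + a) / a) 1 0 (r / a)) :=
    hA.comm (el_mem hG (by decide)) el_sq.1 (shape_first hβ hr)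
  have hb := small hG hK (hB.comm (el_mem hG (by decide)) el_sq.2.1 (shape_third _ _))
  obtain ⟨rfl, rfl⟩ := shape_beta p a _ hdet hβ hb
  have e0 : ((1 : K) + 1) / 1 = 0 := by decide +kernel
  rw [e0, div_one, shape_el] at hB
  obtain ⟨br, rfl⟩ := bk_of_prime _ (small hG hK hB)
  obtain ⟨bq, rfl⟩ := bk_of_prime _
    (small hG hK (hA.comm (el_mem hG (by decide)) el_sq.2.1 shape_second))
  have hv := small hG hK (dd_split bq br v ▸
    hA.mul ((el_off hG (by decide) br).mul (el_off hG (by decide) bq)))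
  obtain ⟨bv, rfl⟩ := bk_of_prime _ hv
  exact ⟨bq, br, bv, (dd_shape bq br bv).symm⟩

/-- The image on the first three coordinates. -/
noncomputable abbrev Img (X : Subgroup (GL (Fin 7) K)) : Subgroup (GL (Fin 3) K) := (act X).range

theorem img_inH (g : Img X) : InH X ((g : GL (Fin 3) K) : M3K) := by
  obtain ⟨k, hk⟩ := g.2
  exact ⟨k, by rw [hk]⟩

/-- The central involution of the image. -/
noncomputable def tImg (hG : Gens X) : Img X := (act X).rangeRestrict (exists_lift hG).choose

theorem tImg_val (hG : Gens X) : ((tImg hG : GL (Fin 3) K) : M3K) = el 2 1 1 :=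
  (exists_lift hG).choose_spec.1

theorem img_ext {g k : Img X} (e : ((g : GL (Fin 3) K) : M3K) = ((k : GL (Fin 3) K) : M3K)) :
    g = k := Subtype.ext (Units.ext e)

theorem img_val_mul (g k : Img X) :
    (((g * k : Img X) : GL (Fin 3) K) : M3K) =
      ((g : GL (Fin 3) K) : M3K) * ((k : GL (Fin 3) K) : M3K) := rfl

theorem img_val_one : (((1 : Img X) : GL (Fin 3) K) : M3K) = 1 := rfl

theorem tImg_sq (hG : Gens X) : tImg hG * tImg hG = 1 :=
  img_ext (by rw [img_val_mul, img_val_one, tImg_val, el_sq.2.2])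

theorem img_cent (hG : Gens X) (hK : SmallKernel X) {g : Img X}
    (e : g * tImg hG = tImg hG * g) :
    ∃ q r v : Bool, ((g : GL (Fin 3) K) : M3K) = dd q r v := by
  refine cent_small hG hK (img_inH g) ?_
  rw [← tImg_val hG, ← img_val_mul, ← img_val_mul, e]

theorem img_cent_pow (hG : Gens X) (hK : SmallKernel X) {g : Img X}
    (e : g * tImg hG = tImg hG * g) : g ^ 4 = 1 := by
  obtain ⟨q, r, v, h⟩ := img_cent hG hK e
  refine img_ext ?_
  rw [show g ^ 4 = g * g * (g * g) by rw [pow_succ, pow_succ, pow_succ, pow_one, mul_assoc], img_val_mul, img_val_mul, img_val_one, h,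
    dd_pow_four]

theorem img_cent_conj (hG : Gens X) (hK : SmallKernel X) {g : Img X}
    (e : g * tImg hG = tImg hG * g) (h2 : g * g = 1) (h1 : g ≠ 1) :
    ∃ k : Img X, g = k * tImg hG * k⁻¹ := by
  obtain ⟨q, r, v, h⟩ := img_cent hG hK e
  obtain ⟨k, hk⟩ := dd_conj hG (T := (exists_lift hG).choose) (exists_lift hG).choose_spec.1
    (q := q) (r := r) (v := v) (by rw [← h, ← img_val_mul, h2, img_val_one])
    (fun hd => h1 (img_ext (by rw [h, hd, img_val_one])))
  refine ⟨(act X).rangeRestrict k, img_ext ?_⟩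
  rw [h, ← hk, tImg, ← map_inv, ← map_mul, ← map_mul]
  rfl

/-- All involutions of the image are conjugate. -/
theorem img_conj (hG : Gens X) (hK : SmallKernel X) {g : Img X} (h2 : g * g = 1) (h1 : g ≠ 1) :
    ∃ k : Img X, g = k * tImg hG * k⁻¹ := by
  obtain ⟨t, ht⟩ : ∃ t, t = tImg hG := ⟨_, rfl⟩
  rw [← ht]
  have htt : t * t = 1 := ht ▸ tImg_sq hG
  have htinv : t⁻¹ = t := inv_eq_of_mul_eq_one_right htt
  have hginv : g⁻¹ = g := inv_eq_of_mul_eq_one_right h2
  obtain ⟨u, hu⟩ : ∃ u, u = g * t := ⟨_, rfl⟩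
  have tut : ∀ n : ℕ, t * u ^ n * t = (u ^ n)⁻¹ := by
    intro n
    have : t * u * t⁻¹ = u⁻¹ := by
      rw [hu, _root_.mul_inv_rev, htinv, hginv]
      calc t * (g * t) * t = t * g * (t * t) := by group
        _ = t * g := by rw [htt, mul_one]
    rw [← inv_pow, ← this, conj_pow, htinv]
  obtain ⟨n, hn⟩ : ∃ n, orderOf u = n := ⟨_, rfl⟩
  rcases Nat.even_or_odd' n with ⟨m, rfl | rfl⟩
  · have hm : m ≠ 0 := by
      intro h; rw [h, mul_zero] at hn; exact (orderOf_pos u).ne' hn
    obtain ⟨e, he⟩ : ∃ e, e = u ^ m := ⟨_, rfl⟩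
    have ee : e * e = 1 := by rw [he, ← pow_add, ← two_mul, ← hn, pow_orderOf_eq_one]
    have e1 : e ≠ 1 := by
      rw [he]; exact pow_ne_one_of_lt_orderOf hm (by rw [hn]; omega)
    have einv : e⁻¹ = e := inv_eq_of_mul_eq_one_right ee
    have et : e * t = t * e := by
      have := tut m
      rw [← he, einv] at this
      calc e * t = t * e * t * t := by rw [this]
        _ = t * e := by rw [mul_assoc, htt, mul_one]
    have eg : e * g = g * e := by
      have gu : g = u * t := by rw [hu, mul_assoc, htt, mul_one]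
      have ue : e * u = u * e := by rw [he, ← pow_succ, ← pow_succ']
      rw [gu]
      calc e * (u * t) = u * (e * t) := by rw [← mul_assoc, ue, mul_assoc]
        _ = u * t * e := by rw [et, mul_assoc]
    obtain ⟨k, hk⟩ := img_cent_conj hG hK (ht ▸ et) ee e1
    rw [← ht] at hk
    obtain ⟨g', hg'⟩ : ∃ g', g' = k⁻¹ * g * k := ⟨_, rfl⟩
    have c : g' * t = t * g' := by
      have : t = k⁻¹ * e * k := by rw [hk]; group
      rw [this, hg']
      calc k⁻¹ * g * k * (k⁻¹ * e * k) = k⁻¹ * (g * e) * k := by group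
        _ = _ := by rw [← eg]; group
    obtain ⟨l, hl⟩ := img_cent_conj hG hK (ht ▸ c)
      (by rw [hg', show k⁻¹ * g * k * (k⁻¹ * g * k) = k⁻¹ * (g * g) * k by group, h2]; group)
      (fun h => h1 (by
        rw [show g = k * g' * k⁻¹ by rw [hg']; group, h]; group))
    rw [← ht] at hl
    refine ⟨k * l, ?_⟩
    calc g = k * g' * k⁻¹ := by rw [hg']; group
      _ = k * (l * t * l⁻¹) * k⁻¹ := by rw [hl]
      _ = _ := by group
  · refine ⟨u ^ (m + 1), ?_⟩
    have key : t * (u ^ (m + 1))⁻¹ = u ^ (m + 1) * t := by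
      rw [← tut, ← mul_assoc, ← mul_assoc, htt, one_mul]
    rw [mul_assoc, key, ← mul_assoc, ← pow_add,
      show m + 1 + (m + 1) = 2 * m + 1 + 1 by omega, pow_succ, ← hn, pow_orderOf_eq_one, one_mul,
      hu, mul_assoc, htt, mul_one]

end Cfsg.Agent.CSixSevenEight
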