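import Cfsg.Agent.CSixSevenEight.ImageTop
import Cfsg.Agent.CSixSeven.Finish

/-!
# The image of the centraliser of the parity involution on three coordinates

The image contains the six elementary matrices over the prime field. It has one class of involutions,
and a centraliser of an involution has at most eight elements.
-/

set_option autoImplicit false
set_option maxRecDepth 8000
set_option linter.unusedSectionVars false

namespace Cfsg.Agent.CSixSevenEight

open Cfsg Cfsg.Geo Matrix
open Cfsg.Agent.CSixSeven (InX Zm Ym Xm Kz)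

variable {X : Subgroup (GL (Fin 7) K)}

/-- The element of the prime field of a truth value. -/
def bk (b : Bool) : K := bif b then 1 else 0

/-- An elementary matrix. -/
def el (i j : Fin 3) (c : K) : M3K :=
  Matrix.of fun a b => if a = i ∧ b = j then c else if a = b then 1 else 0

/-- The centraliser of the central elementary involution over the prime field. -/
def dd (q r v : Bool) : M3K := !![1, bk q, 0; 0, 1, 0; bk r, bk v, 1]

/-- `A` is the matrix of an element of the image. -/
def InH (X : Subgroup (GL (Fin 7) K)) (A : M3K) : Prop := ∃ g : Kz X, (act X g : M3K) = A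

theorem InH.mul {A B : M3K} (hA : InH X A) (hB : InH X B) : InH X (A * B) := by
  obtain ⟨g, hg⟩ := hA
  obtain ⟨k, hk⟩ := hB
  exact ⟨g * k, by rw [map_mul, Units.val_mul, hg, hk]⟩

theorem InH.of_inv {A B : M3K} (hA : InH X A) (e : A * B = 1) : InH X B := by
  obtain ⟨g, hg⟩ := hA
  refine ⟨g⁻¹, ?_⟩
  rw [map_inv, Units.inv_eq_of_mul_eq_one_right (by rw [hg, e])]

theorem lift_mem {M : M7K} (hM : InQ qb X M) (e : M * Nz = Nz * M) :
    ∃ g : Kz X, cq g.1 = M := by
  obtain ⟨g, hg, eg⟩ := hM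
  refine ⟨⟨g, hg, ?_⟩, cq_of_eq eg⟩
  have mm : ∀ A B : M7K, qb.Q * A * qb.Qi * (qb.Q * B * qb.Qi) = qb.Q * (A * B) * qb.Qi := by
    intro A B
    calc qb.Q * A * qb.Qi * (qb.Q * B * qb.Qi) = qb.Q * A * (qb.Qi * qb.Q) * B * qb.Qi := by
          simp only [Matrix.mul_assoc]
      _ = _ := by rw [qb.inv, Matrix.mul_one]; simp only [Matrix.mul_assoc]
  show (g : M7K) * (Zm : M7K) = (Zm : M7K) * (g : M7K)
  rw [eg, zm_eq, mm, mm, zq, Matrix.mul_add, Matrix.add_mul, Matrix.mul_one, Matrix.one_mul, e]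

theorem cq_inj {h k : GL (Fin 7) K} (e : cq h = cq k) : h = k :=
  Units.ext (by rw [← cq_back h, ← cq_back k, e])

theorem act_of_top {g : Kz X} {M : M7K} {A : M3K} (e : cq g.1 = M) (et : norm3 (top M) = A) :
    (act X g : M3K) = A := by
  rw [← et, ← e]; rfl

/-! ### The certificates -/

theorem lifts_ok : Data.lifts.all (fun p =>
    pairOk p.2 && same (mul7 (dec p.2.1) Nz) (mul7 Nz (dec p.2.1)) &&
      decide (norm3 (top (dec p.2.1)) = el p.1.1 p.1.2 1)) = true := by decide +kernel

theorem lifts_cover : ∀ i j : Fin 3, i ≠ j → (i, j) ∈ Data.lifts.map Prod.fst := by decide +kernel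

theorem el_mem (hG : Gens X) {i j : Fin 3} (hij : i ≠ j) : InH X (el i j 1) := by
  obtain ⟨p, hp, ep⟩ := List.mem_map.1 (lifts_cover i j hij)
  have := List.all_eq_true.1 lifts_ok p hp
  simp only [Bool.and_eq_true, decide_eq_true_eq] at this
  obtain ⟨⟨hok, hs⟩, ht⟩ := this
  rw [ep] at ht
  obtain ⟨g, hg⟩ := lift_mem (pair_spec hG hok).1
    (by rw [← mul7_eq, ← mul7_eq, eq_of_same hs])
  exact ⟨g, act_of_top hg ht⟩

theorem wits_ok : Data.wits.all (fun p =>
    pairOk p.2 && same (mul7 (dec p.2.1) Nz) (mul7 Nz (dec p.2.1)) &&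
      same (mul7 (dec p.2.2) Nz) (mul7 Nz (dec p.2.2)) &&
      decide (norm3 (top (dec p.2.1)) * el 2 1 1 * norm3 (top (dec p.2.2)) =
        dd p.1.1 p.1.2.1 p.1.2.2)) = true := by decide +kernel

theorem wits_cover : ∀ q r v : Bool, (q && r) = false → (q || r || v) = true →
    (q, r, v) ∈ Data.wits.map Prod.fst := by decide +kernel

theorem dd_sq_cases : ∀ q r v : Bool, dd q r v * dd q r v = 1 → (q && r) = false := by decide +kernel

theorem dd_false : dd false false false = 1 := by decide +kernel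

theorem dd_pow_four : ∀ q r v : Bool, dd q r v * dd q r v * (dd q r v * dd q r v) = 1 := by
  decide +kernel

/-- The involutions of the small centraliser are conjugate to the central one. -/
theorem dd_conj (hG : Gens X) {T : Kz X} (hT : (act X T : M3K) = el 2 1 1) {q r v : Bool}
    (h2 : dd q r v * dd q r v = 1) (h1 : dd q r v ≠ 1) :
    ∃ k : Kz X, (act X (k * T * k⁻¹) : M3K) = dd q r v := by
  have hne : (q || r || v) = true := by
    cases q <;> cases r <;> cases v <;> first | rfl | exact absurd dd_false h1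
  obtain ⟨p, hp, ep⟩ := List.mem_map.1 (wits_cover q r v (dd_sq_cases q r v h2) hne)
  have := List.all_eq_true.1 wits_ok p hp
  simp only [Bool.and_eq_true, decide_eq_true_eq] at this
  obtain ⟨⟨⟨hok, hs⟩, hs'⟩, ht⟩ := this
  rw [ep] at ht
  obtain ⟨hW, hW', eW, -⟩ := pair_spec hG hok
  obtain ⟨g, hg⟩ := lift_mem hW (by rw [← mul7_eq, ← mul7_eq, eq_of_same hs])
  obtain ⟨g', hg'⟩ := lift_mem hW' (by rw [← mul7_eq, ← mul7_eq, eq_of_same hs'])
  have einv : g' = g⁻¹ := by
    refine eq_inv_of_mul_eq_one_right (Subtype.ext (cq_inj ?_))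
    rw [Subgroup.coe_mul, cq_mul, hg, hg', eW, Subgroup.coe_one, cq_one]
  refine ⟨g, ?_⟩
  rw [← einv, map_mul, map_mul, Units.val_mul, Units.val_mul, act_of_top hg rfl,
    act_of_top hg' rfl, hT, ht]

/-! ### Subfield elements -/

theorem id20 : ∀ c : K, el 2 1 c * el 1 0 1 * el 2 1 c * el 1 0 1 = el 2 0 c := by decide +kernel

theorem id01 : ∀ c : K, el 0 2 1 * el 2 1 c * el 0 2 1 * el 2 1 c = el 0 1 c := by decide +kernel

theorem id21 : ∀ c d : K, el 2 0 c * el 0 1 d * el 2 0 c * el 0 1 d = el 2 1 (c * d) := by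
  decide +kernel

theorem id10 : ∀ c : K, el 1 2 1 * el 2 0 c * el 1 2 1 * el 2 0 c = el 1 0 c := by decide +kernel

theorem id12 : ∀ c : K, el 1 0 c * el 0 2 1 * el 1 0 c * el 0 2 1 = el 1 2 c := by decide +kernel

theorem el_add : ∀ c d : K, el 2 1 c * el 2 1 d = el 2 1 (c + d) := by decide +kernel

theorem el_zero : el 2 1 0 = 1 := by decide +kernel

theorem spanned : ∀ c d : K, c ≠ 0 → c ≠ 1 →
    ∃ e₀ e₁ e₂ : Bool, d = bk e₀ + bk e₁ * c + bk e₂ * (c * c) := by decide +kernel

/-- All elementary matrices at the position of the central one, from a single non-prime one. -/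
theorem el_all (hG : Gens X) {c : K} (hc : InH X (el 2 1 c)) (h0 : c ≠ 0) (h1 : c ≠ 1) (d : K) :
    InH X (el 2 1 d) := by
  have h20 : ∀ {a : K}, InH X (el 2 1 a) → InH X (el 2 0 a) := fun {a} ha => by
    rw [← id20]
    exact ((ha.mul (el_mem hG (by decide))).mul ha).mul (el_mem hG (by decide))
  have h01 : ∀ {a : K}, InH X (el 2 1 a) → InH X (el 0 1 a) := fun {a} ha => by
    rw [← id01]
    exact (((el_mem hG (by decide)).mul ha).mul (el_mem hG (by decide))).mul ha
  have hcc : InH X (el 2 1 (c * c)) := by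
    rw [← id21]
    exact (((h20 hc).mul (h01 hc)).mul (h20 hc)).mul (h01 hc)
  obtain ⟨e₀, e₁, e₂, rfl⟩ := spanned c d h0 h1
  have hz : InH X (el 2 1 0) := ⟨1, by rw [map_one, Units.val_one, el_zero]⟩
  rw [← el_add, ← el_add]
  refine (InH.mul ?_ ?_).mul ?_
  · cases e₀
    · exact hz
    · exact el_mem hG (by decide)
  · cases e₁ <;> simp only [bk, cond_true, cond_false, one_mul, zero_mul]
    · exact hz
    · exact hc
  · cases e₂ <;> simp only [bk, cond_true, cond_false, one_mul, zero_mul]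
    · exact hz
    · exact hcc

/-- The monomial element of a parameter. -/
def nd (d : K) : M3K := el 2 1 d * el 1 2 d⁻¹ * el 2 1 d

theorem nd_conj : ∀ d : K, d ≠ 0 →
    nd d * nd 1 * el 2 1 1 = el 2 1 (d * d) * (nd d * nd 1) := by decide +kernel

theorem is_sq : ∀ a : K, ∃ d : K, a = d * d := by decide +kernel

/-- The parity involution in the centraliser. -/
def IsZ (z : Kz X) : Prop := cq z.1 = zq

theorem sq_scalar {k : Kz X} {c : K} (h : cq k.1 = c • 1 ∨ cq k.1 = c • zq) :
    cq (k * k).1 = (c * c) • 1 := by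
  rw [Subgroup.coe_mul, cq_mul]
  rcases h with h | h <;>
    rw [h, Matrix.smul_mul, Matrix.mul_smul, smul_smul]
  · rw [Matrix.one_mul]
  · rw [zq_sq]

theorem zq_ne_one : zq ≠ 1 := by decide +kernel

theorem smul_one_inj : ∀ c : K, c • (1 : M3K) = 1 → c = 1 := by decide +kernel

theorem scalar_of_cq {k : Kz X} {c : K} (h : cq k.1 = c • 1 ∨ cq k.1 = c • zq) (g : Kz X) :
    k * g = g * k := by
  refine Subtype.ext (cq_inj ?_)
  rw [Subgroup.coe_mul, Subgroup.coe_mul, cq_mul, cq_mul]
  rcases h with h | h <;> rw [h, Matrix.smul_mul, Matrix.mul_smul]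
  · rw [Matrix.one_mul, Matrix.mul_one]
  · rw [zq, Matrix.add_mul, Matrix.mul_add, Matrix.one_mul, Matrix.mul_one, cq_comm g.2]

theorem lift_ok : pairOk (Data.lifts.getD 5 ((0, 0), (0, 0))).2 = true ∧
    same (mul7 (dec (Data.lifts.getD 5 ((0, 0), (0, 0))).2.1) Nz)
      (mul7 Nz (dec (Data.lifts.getD 5 ((0, 0), (0, 0))).2.1)) = true ∧
    same (mul7 (dec (Data.lifts.getD 5 ((0, 0), (0, 0))).2.1)
      (dec (Data.lifts.getD 5 ((0, 0), (0, 0))).2.1)) (1 + Nz) = true ∧
    norm3 (top (dec (Data.lifts.getD 5 ((0, 0), (0, 0))).2.1)) = el 2 1 1 := by decide +kernel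

/-- A lift of the central involution squares to the parity involution. -/
theorem exists_lift (hG : Gens X) :
    ∃ T : Kz X, (act X T : M3K) = el 2 1 1 ∧ IsZ (T * T) := by
  obtain ⟨hok, hs, hsq, ht⟩ := lift_ok
  obtain ⟨g, hg⟩ := lift_mem (pair_spec hG hok).1
    (by rw [← mul7_eq, ← mul7_eq, eq_of_same hs])
  refine ⟨g, act_of_top hg ht, ?_⟩
  rw [IsZ, Subgroup.coe_mul, cq_mul, hg, ← mul7_eq, eq_of_same hsq]
  rfl

/-- The central elementary involution has no conjugate over a larger field. -/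
theorem small (hG : Gens X) (hK : SmallKernel X) {c : K} (hc : InH X (el 2 1 c)) :
    c = 0 ∨ c = 1 := by
  by_contra hcon
  push Not at hcon
  have all := el_all hG hc hcon.1 hcon.2
  have h20 : ∀ a : K, InH X (el 2 0 a) := fun a => by
    rw [← id20]
    exact (((all a).mul (el_mem hG (by decide))).mul (all a)).mul (el_mem hG (by decide))
  have h10 : ∀ a : K, InH X (el 1 0 a) := fun a => by
    rw [← id10]
    exact (((el_mem hG (by decide)).mul (h20 a)).mul (el_mem hG (by decide))).mul (h20 a)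
  have h12 : ∀ a : K, InH X (el 1 2 a) := fun a => by
    rw [← id12]
    exact (((h10 a).mul (el_mem hG (by decide))).mul (h10 a)).mul (el_mem hG (by decide))
  have hn : ∀ a : K, InH X (nd a) := fun a => ((all a).mul (h12 _)).mul (all a)
  obtain ⟨T, hT, hTz⟩ := exists_lift hG
  have hz : ∀ g : Kz X, T * T * g = g * (T * T) := fun g =>
    scalar_of_cq (c := 1) (Or.inr (by rw [one_smul]; exact hTz)) g
  have tau : ∀ a : K, a ≠ 0 → ∃ g : Kz X, (act X g : M3K) = el 2 1 a ∧ g * g = T * T := by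
    intro a ha
    obtain ⟨d, rfl⟩ := is_sq a
    have hd : d ≠ 0 := fun h => ha (by rw [h, mul_zero])
    obtain ⟨k, hk⟩ := (hn d).mul (hn 1)
    refine ⟨k * T * k⁻¹, ?_, ?_⟩
    · rw [map_mul, map_inv, Units.val_mul, Units.mul_inv_eq_iff_eq_mul, map_mul, Units.val_mul,
        hT, hk, nd_conj d hd]
    · calc k * T * k⁻¹ * (k * T * k⁻¹) = k * (T * T) * k⁻¹ := by group
        _ = T * T := by rw [← hz k, mul_inv_cancel_right]
  have anti : ∀ a b : K, a ≠ 0 → b ≠ 0 → a + b ≠ 0 → ∀ ga gb : Kz X,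
      (act X ga : M3K) = el 2 1 a → ga * ga = T * T →
      (act X gb : M3K) = el 2 1 b → gb * gb = T * T →
      ga * gb = T * T * (gb * ga) := by
    intro a b ha hb hab ga gb ea za eb zb
    obtain ⟨gc, ec, zc⟩ := tau _ hab
    have hk : act X (gc⁻¹ * (ga * gb)) = 1 := by
      rw [map_mul, map_inv, inv_mul_eq_one]
      exact Units.ext (by rw [map_mul, Units.val_mul, ea, eb, ec, el_add])
    obtain ⟨s, -, hs⟩ := act_eq_one hG hK hk
    set k := gc⁻¹ * (ga * gb) with hkdef
    have hkc := scalar_of_cq hs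
    have habk : ga * gb = gc * k := by rw [hkdef, mul_inv_cancel_left]
    set κ := ga * gb * (gb * ga)⁻¹ with hκ
    have hκ1 : act X κ = 1 := by
      rw [hκ, map_mul, map_inv, mul_inv_eq_one]
      exact Units.ext (by rw [map_mul, map_mul, Units.val_mul, Units.val_mul, ea, eb, el_add,
        el_add, add_comm])
    obtain ⟨s', -, hs'⟩ := act_eq_one hG hK hκ1
    have hκc := scalar_of_cq hs'
    have eκ : ga * gb = κ * (gb * ga) := by rw [hκ, inv_mul_cancel_right]
    have conjb : ga * gb * ga⁻¹ = κ * gb := by rw [eκ]; group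
    have hκ2 : κ * κ = 1 := by
      have : (κ * gb) * (κ * gb) = T * T := by
        rw [← conjb]
        calc ga * gb * ga⁻¹ * (ga * gb * ga⁻¹) = ga * (gb * gb) * ga⁻¹ := by group
          _ = T * T := by rw [zb, ← hz ga, mul_inv_cancel_right]
      rw [mul_assoc, ← mul_assoc gb, ← hκc gb, mul_assoc κ gb, zb, ← mul_assoc] at this
      exact mul_right_cancel (this.trans (one_mul _).symm)
    have sq1 : (ga * gb) * (ga * gb) = κ := by
      have e : gb * ga = κ * (ga * gb) := by
        rw [eκ, ← mul_assoc, hκ2, one_mul]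
      calc (ga * gb) * (ga * gb) = ga * (gb * ga) * gb := by group
        _ = κ * ((ga * ga) * (gb * gb)) := by
            rw [e, ← mul_assoc, ← hκc ga]; group
        _ = κ := by
            have zz : T * T * (T * T) = 1 := Subtype.ext (cq_inj (by
              rw [Subgroup.coe_mul, cq_mul, hTz, zq_sq, Subgroup.coe_one, cq_one]))
            rw [za, zb, zz, mul_one]
    have sq2 : (ga * gb) * (ga * gb) = T * T * (k * k) := by
      rw [habk, mul_assoc, ← mul_assoc k, hkc gc, mul_assoc, ← mul_assoc gc, zc]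
    have hkk := sq_scalar hs
    have hκz : cq κ.1 = (s * s) • zq := by
      rw [← sq1, sq2, Subgroup.coe_mul, cq_mul, hkk, hTz, Matrix.mul_smul, Matrix.mul_one]
    have s1 : s * s = 1 := by
      have := congrArg (fun x : Kz X => cq x.1) hκ2
      simp only [Subgroup.coe_mul, cq_mul, hκz, Matrix.smul_mul, Matrix.mul_smul, smul_smul, zq_sq,
        Subgroup.coe_one, cq_one] at this
      have h3 := congrArg top this
      rw [top_smul, top_one] at h3
      exact Cfsg.Agent.SpecD4.F8.eq_one_of_sq _ (smul_one_inj _ h3)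
    have : κ = T * T := Subtype.ext (cq_inj (by rw [hκz, s1, one_smul, hTz]))
    rw [eκ, this]
  obtain ⟨ga, ea, za⟩ := tau 1 (by decide)
  obtain ⟨gb, eb, zb⟩ := tau (Cfsg.Agent.SpecD4.F8.mk 2) (by decide)
  obtain ⟨gc, ec, zc⟩ := tau (Cfsg.Agent.SpecD4.F8.mk 4) (by decide)
  obtain ⟨gd, ed, zd⟩ := tau (Cfsg.Agent.SpecD4.F8.mk 3) (by decide)
  have hk : act X (gd⁻¹ * (ga * gb)) = 1 := by
    rw [map_mul, map_inv, inv_mul_eq_one]
    refine Units.ext ?_
    rw [map_mul, Units.val_mul, ea, eb, ed, el_add]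
    decide +kernel
  obtain ⟨s, -, hs⟩ := act_eq_one hG hK hk
  have kc := scalar_of_cq hs gc
  have eac := anti _ _ (by decide) (by decide) (by decide) ga gc ea za ec zc
  have ebc := anti _ _ (by decide) (by decide) (by decide) gb gc eb zb ec zc
  have edc := anti _ _ (by decide) (by decide) (by decide) gd gc ed zd ec zc
  set k := gd⁻¹ * (ga * gb) with hkdef
  have habk : ga * gb = gd * k := by rw [hkdef, mul_inv_cancel_left]
  have zz : T * T * (T * T) = 1 := Subtype.ext (cq_inj (by
    rw [Subgroup.coe_mul, cq_mul, hTz, zq_sq, Subgroup.coe_one, cq_one]))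
  have c1 : ga * gb * gc = gc * (ga * gb) := by
    calc ga * gb * gc = ga * (T * T * (gc * gb)) := by rw [mul_assoc, ebc]
      _ = T * T * (ga * gc) * gb := by rw [← mul_assoc, ← hz ga]; group
      _ = T * T * (T * T) * (gc * (ga * gb)) := by rw [eac]; group
      _ = gc * (ga * gb) := by rw [zz, one_mul]
  rw [habk, mul_assoc gd, kc, ← mul_assoc, edc, ← mul_assoc gc, mul_assoc (T * T)] at c1
  have e1 : cq (T * T).1 = zq := hTz
  rw [mul_eq_right.1 c1, Subgroup.coe_one, cq_one] at e1
  exact zq_ne_one e1.symm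

end Cfsg.Agent.CSixSevenEight
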